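import Mathlib
import Cfsg.Agent.Base
import Cfsg.Agent.Lib.LocEven.JCase
import Cfsg.Agent.Lib.LocEven.S3Recog

/-!
The amalgam of two `J(T)`-components for `T ∈ 𝒯*(M)` (Kurzweil–Stellmacher 12.2.9 - 12.2.12).
-/

set_option autoImplicit false
set_option linter.unusedSectionVars false
set_option linter.unusedVariables false

namespace H70

open Subgroup H69 Cfsg
open scoped commutatorElement Pointwise

variable {G : Type*} [Group G]

/-- the involutions of `A ∩ B` lie in `O₂(A) ∪ O₂(B)`. -/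
theorem Edge.mem_or_mem {A B : Subgroup G} (h : Edge A B) (h' : Edge B A) {u : G} (hu : u ∈ A ⊓ B)
    (h2 : u * u = 1) : u ∈ 𝐎(A) ∨ u ∈ 𝐎(B) := by
  by_contra hn
  push Not at hn
  obtain ⟨ea, ea'⟩ := h.ea h'
  obtain ⟨e, he, heB⟩ := exists_not_mem_of_not_le (h'.not_O_le h)
  have h3 : e * u ∈ 𝐎(B) := h'.le2 e ((inf_comm A B).le (h.O_le he)) u ((inf_comm A B).le hu) heB hn.2
  have h4 := ea_mul_self ea he
  have h5 := ea_mul_self ea' h3
  have h6 : 𝐎(A) ≤ 𝐂(zpowers (e * u)) := (h'.le2.mono_right (h.O_le.trans (inf_comm A B).le)).le_of_mem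
    (inf_le_left.trans ((H24.EA.le_centralizer ea').trans (H69.centralizer_anti (zpowers_le_of_mem h3))))
    he heB (mem_cent_of_conj_eq (by
      have e1 : e⁻¹ = e := inv_eq_of_mul_eq_one_right h4
      have e2 : u⁻¹ = u := inv_eq_of_mul_eq_one_right h2
      have e3 : e * u = u * e := by rw [← inv_eq_of_mul_eq_one_right h5, mul_inv_rev, e1, e2]
      rw [mul_assoc, e3, mul_inv_cancel_right, e3]))
  have h7 : e * u ∈ 𝐎(A) := h.ch ⟨mul_mem (pCoreOf_le 2 A he) hu.1,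
    le_centralizer_comm.1 h6 (mem_zpowers _)⟩
  exact hn.1 (by simpa using mul_mem (inv_mem he) h7)

variable [Finite G]

namespace UQ

variable {T K L S K' L' : Subgroup G}

theorem O_le_T (h : UQ T K L) : 𝐎(K) ≤ T := (h.la.O_le_O h.zn h.jc h.KL).trans h.la.O_le

theorem sup_le_L (h : UQ T K L) : K ⊔ T ≤ L := sup_le h.KL h.syl.le

theorem O_le_O_sup (h : UQ T K L) : 𝐎(L) ≤ 𝐎(K ⊔ T) :=
  le_pCoreOf (isPGroup_pCoreOf 2 L) (h.la.O_le.trans le_sup_right) (h.sup_le_L.trans (le_normalizer_pCoreOf 2 L))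

theorem cent_O_sup (h : UQ T K L) : 𝐂(𝐎(K ⊔ T)) ≤ 𝐎(K ⊔ T) :=
  (H69.centralizer_anti h.O_le_O_sup).trans (h.la.ch.trans h.O_le_O_sup)

theorem sylow_sup (h : UQ T K L) : IsSylowIn 2 T (K ⊔ T) := h.syl.mono le_sup_right h.sup_le_L

theorem not_le_cent_oz (h : UQ T K L) : ¬ K ≤ 𝐂(𝐙(T)) := by
  obtain ⟨S, hS, hTS⟩ := exists_isSylowIn_le h.isP le_top
  exact fun e => h.not_oz_le hS hTS ((h.oz_le hTS).trans (le_centralizer_comm.1 e))

theorem relIndex_O (h : UQ T K L) (hn : T ≤ 𝐍(K)) : 𝐎(K ⊔ T).relIndex T = 2 := by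
  rw [h.jc.k3.O_sup_eq h.jc.card h.isP hn]
  exact ((h.jc.k3.le2_cent h.jc.card h.isP hn).mono (le_inf (inf_le_right.trans le_sup_right) inf_le_left)
    le_rfl).relIndex_eq fun e => h.jc.not_le_cent ((J_le T).trans (e.trans inf_le_right))

theorem eq_bot_of_norm (h : UQ T K L) (h' : UQ T K' L') (hne : L ≠ L') {N : Subgroup G} (hN : IsPGroup 2 N)
    (h1 : K ⊔ T ≤ 𝐍(N)) (h2 : K' ⊔ T ≤ 𝐍(N)) : N = ⊥ := by
  by_contra h3
  exact hne (h.eq_of_le h' rfl ((le_sup_left.trans h2).trans (h.norm_le hN h3 (le_sup_left.trans h1)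
    ((J_le T).trans (le_sup_right.trans h1)))))

theorem inf_eq (h : UQ T K L) (h' : UQ T K' L') (hne : L ≠ L') (hn : T ≤ 𝐍(K)) :
    (K ⊔ T) ⊓ (K' ⊔ T) = T := by
  rcases eq_or_eq_of_relIndex_prime Nat.prime_three (h.jc.k3.relIndex_sup h.isP h.O_le_T hn)
    (le_inf le_sup_right le_sup_right : T ≤ (K ⊔ T) ⊓ (K' ⊔ T)) inf_le_left with e | e
  · exact e
  · exact absurd (h'.eq_of_le h rfl (le_sup_left.trans ((inf_eq_left.1 e).trans h'.sup_le_L))).symm hne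

theorem edge (h : UQ T K L) (h' : UQ T K' L') (hne : L ≠ L') (hn : T ≤ 𝐍(K)) : Edge (K ⊔ T) (K' ⊔ T) := by
  have h1 := h.inf_eq h' hne hn
  refine ⟨inferInstance, h1.symm ▸ h.isP, ?_, h1.symm ▸ h.relIndex_O hn,
    h.sylow_sup.pCoreOf_le.trans le_sup_right, inf_le_right.trans h.cent_O_sup,
    fun e => h.not_le_cent_oz (le_sup_left.trans (h1 ▸ e)),
    fun N a b c => h.eq_bot_of_norm h' hne (h.isP.to_le (h1 ▸ a)) b c⟩
  rw [← inf_relIndex_right, inf_comm, h1, h.jc.k3.relIndex_sup h.isP h.O_le_T hn]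

theorem edge_cj (h : UQ T K L) (hn : T ≤ 𝐍(K)) {x : G} (hx : x ∈ 𝐍(T)) (hxL : x ∉ L) :
    Edge (K ⊔ T) ((K ⊔ T) ^ᶜ x) ∧ Edge ((K ⊔ T) ^ᶜ x) (K ⊔ T) ∧ (K ⊔ T) ⊓ (K ⊔ T) ^ᶜ x = T := by
  have h' := h.cj_of_mem hx
  have hne := h.ne_cj hxL
  rw [cj_sup, cj_eq_of_mem_normalizer hx]
  refine ⟨h.edge h' hne hn, h'.edge h hne.symm ?_, h.inf_eq h' hne hn⟩
  rw [← cj_normalizer]
  exact (cj_eq_of_mem_normalizer hx).ge.trans (cj_mono x hn)

/-- if `N_G(J(S)) ≤ L`, then `S` lies in a 2-local subgroup which is not contained in `L`. -/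
theorem exists_twoLocal (hO : pCore 2 G = ⊥) (h : UQ S K L) (hS : IsSylowIn 2 S ⊤) (hJ : 𝐍(𝐉(S)) ≤ L) :
    ∃ U, IsTwoLocal U ∧ S ≤ U ∧ ¬ U ≤ L := by
  by_contra hU
  push Not at hU
  have hgood := good_of hS hJ
  have hne : (straddlingTwoSubgroups L).Nonempty := by
    rw [Set.nonempty_iff_ne_empty]
    refine fun e => h.jc.not_le_O h.KL (H24.thompsonSubgroupOf_le_iff.2 fun A hA => ?_)
    exact ea_le_O_of_se (se_of_empty hO h.max.1 e) (twoLocal_O_ne_bot h.max.1)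
      ((H24.mem_maxEA.1 hA).1.trans h.syl.le) (H24.mem_maxEA.1 hA).2.1
  obtain ⟨T, hT, hTS⟩ : ∃ T, MX L T ∧ T ≤ S := by
    obtain ⟨T, hT⟩ := exists_mstr hne
    obtain ⟨g, hg, hle⟩ := h.syl.exists_cj_le hT.1.1 hT.1.2.2.1
    exact ⟨_, ⟨h.zn, hgood, mstr_cj hT hg⟩, hle⟩
  have hlt : T < S := lt_of_le_of_ne hTS (by
    rintro rfl
    obtain ⟨U, a, b, c⟩ := hT.mem.1.2.2.2
    exact c (hU U a b))
  obtain ⟨K', L', h', -⟩ := hT.exists_uq
  have hout : ∀ x ∈ S, x ∈ 𝐍(T) → x ∉ T → x ∉ L' := fun x a b c d => c (h'.mem_of_mem hS.isP a b d)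
  obtain ⟨x, hx, hxT⟩ := exists_not_mem_of_not_le (lt_inf_normalizer_of_lt hS.isP hlt).not_ge
  have hcs := h'.case1 hS hTS (norm_le_norm_J T hx.2) (hout x hx.1 hx.2 hxT)
  have hn := h'.norm_of_cs (hcs.le_cent hTS)
  obtain ⟨V, hV⟩ : ∃ V, V = 𝐙(𝐎(L)) := ⟨_, rfl⟩
  have hVea : IsElementaryAbelian 2 V := hV ▸ oz2_ea _
  have hVS : V ≤ S := hV ▸ (oz2_le _).trans h.la.O_le
  have hVn : S ≤ 𝐍(V) := hV ▸ h.syl.le.trans ((le_normalizer_pCoreOf 2 L).trans (norm_le_norm_oz2 _))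
  have hWV : wOf K ≤ V := hV ▸ h.la.wOf_le h.zn h.jc h.KL
  have hVT : V ≤ T := by
    by_contra hc
    have h1 := lt_inf_normalizer_of_lt (hS.isP.to_le (sup_le hTS hVS))
      (lt_of_le_of_ne (le_sup_left : T ≤ T ⊔ V) fun e => hc (le_sup_right.trans e.ge))
    rw [dedekind_right (hTS.trans hVn) le_normalizer] at h1
    obtain ⟨v, hv, hvT⟩ := exists_not_mem_of_not_le (A := T) (C := V ⊓ 𝐍(T)) fun e => h1.not_ge (sup_le le_rfl e)
    obtain ⟨E1, E2, E3⟩ := h'.edge_cj hn hv.2 (hout v (hVS hv.1) hv.2 hvT)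
    obtain ⟨e, he, he'⟩ := exists_not_mem_of_not_le (E2.not_O_le E1)
    have heT : e ∈ T := E3 ▸ E1.O_le he
    have hv1 : v⁻¹ = v := inv_eq_of_mul_eq_one_right (ea_mul_self hVea hv.1)
    have h2 : e⁻¹ * (v * e * v⁻¹) ∈ V := by
      have : e⁻¹ * (v * e * v⁻¹) = (e⁻¹ * v * e) * v⁻¹ := by group
      rw [this]
      exact mul_mem (conj_mem_of_mem_normalizer' (hVn (hTS heT)) hv.1) (inv_mem hv.1)
    rw [← cj_O] at he'
    rcases E1.mem_or_mem E2 (E3.ge (mul_mem (inv_mem heT) (conj_mem_of_mem_normalizer hv.2 heT)))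
      (ea_mul_self hVea h2) with h3 | h3
    · refine he' (mem_cj.2 ?_)
      have := mul_mem he h3
      rw [mul_inv_cancel_left, hv1] at this
      rwa [hv1]
    · rw [← cj_O] at h3
      have := inv_mem (mul_mem h3 (inv_mem (cj_mem v he)))
      rw [mul_inv_cancel_right, inv_inv] at this
      exact he' this
  obtain ⟨E1, E2, E3⟩ := h'.edge_cj hn hx.2 (hout x hx.1 hx.2 hxT)
  have hV2 : V ≤ 𝐎(K' ⊔ T) ⊓ 𝐎((K' ⊔ T) ^ᶜ x) := by
    have h1 := le_or_le_of_forall_mem_or fun v (hv : v ∈ V) =>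
      E1.mem_or_mem E2 (E3.ge (hVT hv)) (ea_mul_self hVea hv)
    rw [← cj_O] at h1 ⊢
    rcases h1 with h1 | h1
    · exact le_inf h1 ((cj_eq_of_mem_normalizer (hVn hx.1)).ge.trans (cj_mono x h1))
    · exact le_inf ((cj_eq_of_mem_normalizer (hVn (inv_mem hx.1))).ge.trans (le_cj_iff.1 h1)) h1
  have hV3 : wOf K ≤ 𝐙(𝐉(T)) := hWV.trans ((le_oz2 hVea hVT (le_centralizer_comm.1 (E3.ge.trans
    ((E1.le_cent_inf E2 (E1.ea E2).1 (E1.ea E2).2).trans (H69.centralizer_anti hV2))))).trans (oz_le_oz_J T))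
  have hc := card_le_of_le hV3
  rw [h.jc.card] at hc
  rcases hcs with ⟨-, h1⟩ | ⟨-, -, h1⟩ | ⟨-, h1, h2⟩
  · omega
  · exact hlt.ne h1
  · rw [← eq_of_le_of_card_ge hV3 (by rw [h1, h.jc.card])] at h2
    obtain ⟨d, hd, hd3, hdO⟩ := h.jc.k3.exists_three
    have h3 : d ∉ 𝐂(wOf K) := fun e => hdO (h.jc.k3.inf_cent_wOf h.jc.card ⟨hd, e⟩)
    have h4 := (le2_of_relIndex h2 d (le_norm_wOf K hd) d (le_norm_wOf K hd) (fun e => h3 e.2)
      (fun e => h3 e.2)).2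
    refine h3 ?_
    have : d = d * d * (d * d) := by
      have h5 : d ^ 3 = 1 := hd3 ▸ pow_orderOf_eq_one d
      calc d = d ^ 3 * d := by rw [h5, one_mul]
        _ = _ := by simp only [pow_succ, pow_zero, one_mul, mul_assoc]
    rw [this]
    exact mul_mem h4 h4

theorem exists_other_of_le (hO : pCore 2 G = ⊥) (h : UQ S K L) (hS : IsSylowIn 2 S ⊤) (hJ : 𝐍(𝐉(S)) ≤ L) :
    ∃ K' L', UQ S K' L' ∧ L ≠ L' := by
  obtain ⟨K', L', h1, h2⟩ := MX.exists_uq ⟨h.zn, good_of hS hJ, mstr_of_sylow hS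
    ⟨hS.isP, h.ne_bot, h.syl.le, h.exists_twoLocal hO hS hJ⟩⟩
  exact ⟨K', L', h1, fun e => h2 (e ▸ h1.KL)⟩

/-- KS 12.2.9. -/
theorem cases (hO : pCore 2 G = ⊥) (h : UQ T K L) (hS : IsSylowIn 2 S ⊤) (hTS : T ≤ S) : Cs S T L := by
  by_cases hJ : 𝐍(𝐉(T)) ≤ L
  · obtain rfl := h.eq_of_norm_le hS hTS ((norm_le_norm_J T).trans hJ)
    obtain ⟨K', L', h1, h2⟩ := h.exists_other_of_le hO hS hJ
    exact h.case2 h1 hS h2
  · obtain ⟨g, h1, h2⟩ := exists_not_mem_of_not_le hJ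
    exact h.case1 hS hTS h1 h2

/-- KS 12.2.10. -/
theorem norm (hO : pCore 2 G = ⊥) (h : UQ T K L) : T ≤ 𝐍(K) := by
  obtain ⟨S, hS, hTS⟩ := exists_isSylowIn_le h.isP le_top
  exact h.norm_of_cs ((h.cases hO hS hTS).le_cent hTS)

theorem exists_other (hO : pCore 2 G = ⊥) (h : UQ T K L) : ∃ K' L', UQ T K' L' ∧ L ≠ L' := by
  by_cases hn : 𝐍(T) ≤ L
  · obtain ⟨S, hS, hTS⟩ := exists_isSylowIn_le h.isP le_top
    obtain rfl := h.eq_of_norm_le hS hTS hn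
    refine h.exists_other_of_le hO hS ((norm_le_norm_oz2 _).trans ?_)
    rw [← le_antisymm (oz_le_oz_J T) (le_oz2 (oz2_ea _) ((oz2_le _).trans (J_le T))
      (le_centralizer_comm.1 ((h.cases hO hS le_rfl).le_cent le_rfl)))]
    exact (h.zn.norm_oz_le hS).trans hn
  · obtain ⟨g, h1, h2⟩ := exists_not_mem_of_not_le hn
    exact ⟨_, _, h.cj_of_mem h1, h.ne_cj h2⟩

/-- KS 12.2.12: `L = K T`. -/
theorem eq_sup (hO : pCore 2 G = ⊥) (h : UQ T K L) : L = K ⊔ T := by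
  obtain ⟨K', L', h', hne⟩ := h.exists_other hO
  have E1 := h.edge h' hne (h.norm hO)
  have E2 := h'.edge h hne.symm (h'.norm hO)
  have ea := (E1.ea E2).1
  have h8 := E1.card_O_le E2
  have hE : 𝐎(K ⊔ T) = 𝐎(L) := le_antisymm (((H24.EA.le_centralizer ea).trans
    (H69.centralizer_anti h.O_le_O_sup)).trans h.la.ch) h.O_le_O_sup
  rw [hE] at ea h8
  have hW : ∀ X, JC 𝐉(T) X → X ≤ L → wOf X ≤ 𝐎(L) := fun X a b => (h.la.wOf_le h.zn a b).trans (oz2_le _)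
  have hWE := hW K h.jc h.KL
  have h1 : jcl 𝐉(T) L ≤ K := jcl_le_iff.2 fun X a b => (h.la.eq_of_inf_ne_bot h.zn a b h.jc h.KL fun e => by
    have h2 := H24.card_sup_mul_card_inf (le_normalizer_of_le_centralizer (((hW X a b).trans
      (H24.EA.le_centralizer ea)).trans (H69.centralizer_anti hWE)))
    have h3 := card_le_of_le (sup_le (hW X a b) hWE)
    rw [e, card_bot, a.card, h.jc.card] at h2
    omega).le
  have hLK : L ≤ 𝐍(K) := le_antisymm h1 (le_jcl h.jc h.KL) ▸ h.la.le_norm_jcl h.zn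
  have hLW := hLK.trans (norm_le_norm_wOf K)
  have h2 : Le2 (wOf K) 𝐎(L) := le2_of_card_le (by rw [inf_eq_left.2 hWE, h.jc.card]; omega)
  have h3 : ⁅𝐎(L), L ⊓ 𝐂(wOf K)⁆ ≤ wOf K := commutator_le.2 fun e he c hc => by
    rw [commutatorElement_def]
    by_cases heW : e ∈ wOf K
    · have : e * c * e⁻¹ * c⁻¹ = 1 := by rw [hc.2 e heW]; group
      rw [this]
      exact one_mem _
    · have : e * c * e⁻¹ * c⁻¹ = e * (c * e * c⁻¹)⁻¹ := by group
      rw [this]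
      refine h2.mul_inv he (conj_mem_of_mem_normalizer (le_normalizer_pCoreOf 2 L hc.1) he) heW fun e' => heW ?_
      have := conj_mem_of_mem_normalizer' (hLW hc.1) e'
      simpa [mul_assoc] using this
  have h4 : L ⊓ 𝐂(wOf K) ≤ T := h.syl.le_of_le_normalizer (isPGroup_of_res_le (isPGroup_pCoreOf 2 L)
    ((res_le_centralizer_of_commutator_le (wOf_isPGroup K) h3 inf_le_right).trans h.la.ch)) inf_le_left
    (H69.le_normalizer_inf (h.syl.le.trans le_normalizer)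
      (H69.le_normalizer_centralizer (h.syl.le.trans hLW)))
  obtain ⟨w, hw, hw1⟩ := exists_ne_one_of_ne_bot h.jc.oz_inf_wOf_ne_bot
  have h5 : L ⊓ 𝐍(𝐉(T)) ≤ 𝐍(wOf K) ⊓ 𝐂(zpowers w) := le_inf (inf_le_left.trans hLW)
    (((H69.le_normalizer_inf (inf_le_right.trans (norm_le_norm_oz2 _)) (inf_le_left.trans hLW)).trans
      (normalizer_le_centralizer_of_card_le_two h.jc.card_oz_inf_wOf.le)).trans
      (H69.centralizer_anti (zpowers_le_of_mem hw)))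
  have h6 : L ⊓ 𝐍(𝐉(T)) ≤ T := ((le2_cent_four h.jc.card (wOf_ea K) hw.2 hw1).mono_right h5).le_of_not_le
    ((le_inf (inf_le_right.trans inf_le_left) inf_le_left).trans h4) (le_inf h.JL le_normalizer)
    h.jc.not_le_cent (J_le T)
  exact le_antisymm ((h.la.le_sup h.zn).trans (sup_le_sup h1 h6)) h.sup_le_L

end UQ

end H70
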