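import Mathlib
import Cfsg.Agent.Base
import Cfsg.Agent.Lib.LocEven.JEdge
import Cfsg.Agent.Lib.LocEven.Trans2

/-!
Passing to `O²(G)` in a ZN-group of characteristic 2 type (Kurzweil–Stellmacher 12.3).
-/

set_option autoImplicit false
set_option linter.unusedSectionVars false
set_option linter.unusedVariables false

namespace H70

open Subgroup H69 Cfsg
open scoped commutatorElement Pointwise

variable {G : Type*} [Group G] [Finite G]

/-- two different maximal 2-locals over `T`. -/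
structure UP (T K L K' L' : Subgroup G) : Prop where
  hO : pCore 2 G = ⊥
  h : UQ T K L
  h' : UQ T K' L'
  ne : L ≠ L'

namespace UQ

variable {T K L S : Subgroup G}

theorem W_le (h : UQ T K L) : wOf K ≤ 𝐎(L) := (h.la.wOf_le h.zn h.jc h.KL).trans (oz2_le _)

theorem W_le_T (h : UQ T K L) : wOf K ≤ T := h.W_le.trans h.la.O_le

theorem le_norm_W (hO : pCore 2 G = ⊥) (h : UQ T K L) : L ≤ 𝐍(wOf K) :=
  (h.eq_sup hO).le.trans (sup_le (le_norm_wOf K) ((h.norm hO).trans (norm_le_norm_wOf K)))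

theorem norm_W (hO : pCore 2 G = ⊥) (h : UQ T K L) : 𝐍(wOf K) = L :=
  maxTwoLocal_eq h.max (wOf_isPGroup K) (K3.wOf_ne_bot h.jc.card) (h.le_norm_W hO)

theorem cent_W (hO : pCore 2 G = ⊥) (h : UQ T K L) : 𝐂(wOf K) ≤ 𝐎(L) := by
  have h1 := h.jc.k3.O_sup_eq h.jc.card h.isP (h.norm hO)
  rw [← h.eq_sup hO] at h1
  exact (le_inf ((centralizer_le_normalizer _).trans (h.norm_W hO).le) le_rfl).trans h1.ge

theorem oz_le_O (h : UQ T K L) : 𝐙(T) ≤ 𝐎(L) := h.la.oz_le_O le_rfl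

theorem up_cj (hO : pCore 2 G = ⊥) (h : UQ T K L) {x : G} (hx : x ∈ 𝐍(T)) (hxL : x ∉ L) :
    UP T K L (K ^ᶜ x) (L ^ᶜ x) := ⟨hO, h, h.cj_of_mem hx, h.ne_cj hxL⟩

end UQ

namespace UP

variable {T K L K' L' S : Subgroup G}

theorem symm (p : UP T K L K' L') : UP T K' L' K L := ⟨p.hO, p.h', p.h, p.ne.symm⟩

theorem edge (p : UP T K L K' L') : Edge L L' := by
  rw [p.h.eq_sup p.hO, p.h'.eq_sup p.hO]
  exact p.h.edge p.h' p.ne (p.h.norm p.hO)

theorem inf (p : UP T K L K' L') : L ⊓ L' = T := by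
  rw [p.h.eq_sup p.hO, p.h'.eq_sup p.hO]
  exact p.h.inf_eq p.h' p.ne (p.h.norm p.hO)

theorem ea (p : UP T K L K' L') : IsElementaryAbelian 2 𝐎(L) := (p.edge.ea p.symm.edge).1

theorem le2 (p : UP T K L K' L') : Le2 𝐎(L) T := p.inf ▸ p.edge.le2

theorem not_O_le (p : UP T K L K' L') : ¬ 𝐎(L') ≤ 𝐎(L) := p.edge.not_O_le p.symm.edge

theorem card_T (p : UP T K L K' L') : Nat.card T = 2 * Nat.card 𝐎(L) := by
  rw [p.le2.card_eq fun e => p.not_O_le (p.h'.la.O_le.trans e), inf_eq_left.2 p.h.la.O_le]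

theorem le_sup (p : UP T K L K' L') : T ≤ 𝐎(L) ⊔ 𝐎(L') :=
  p.le2.le_of_not_le (inf_le_left.trans le_sup_left) p.h'.la.O_le p.not_O_le le_sup_right

theorem mem_or (p : UP T K L K' L') {u : G} (hu : u ∈ T) (h2 : u * u = 1) : u ∈ 𝐎(L) ∨ u ∈ 𝐎(L') :=
  p.edge.mem_or_mem p.symm.edge (p.inf.ge hu) h2

theorem le_or (p : UP T K L K' L') {A : Subgroup G} (hA : A ≤ T) (ea : IsElementaryAbelian 2 A) :
    A ≤ 𝐎(L) ∨ A ≤ 𝐎(L') := le_or_le_of_forall_mem_or fun u hu => p.mem_or (hA hu) (ea_mul_self ea hu)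

theorem O_le_J (p : UP T K L K' L') : 𝐎(L) ≤ 𝐉(T) := by
  obtain ⟨A, hA⟩ := H24.maxEA_nonempty 2 T
  refine H24.le_thompsonSubgroupOf (H24.mem_maxEA_of_card_le hA p.h.la.O_le p.ea ?_)
  have h1 := p.card_T
  have h2 := p.symm.card_T
  rcases p.le_or (H24.mem_maxEA.1 hA).1 (H24.mem_maxEA.1 hA).2.1 with h | h <;>
  · have := card_le_of_le h
    omega

theorem J_eq (p : UP T K L K' L') : 𝐉(T) = T :=
  le_antisymm (J_le T) (p.le_sup.trans (sup_le p.O_le_J p.symm.O_le_J))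

theorem inf_le_oz (p : UP T K L K' L') : 𝐎(L) ⊓ 𝐎(L') ≤ 𝐙(T) :=
  le_oz2 (H24.EA.mono p.ea inf_le_left) (inf_le_left.trans p.h.la.O_le) (le_centralizer_comm.1
    (p.inf.ge.trans (p.edge.le_cent_inf p.symm.edge p.ea p.symm.ea)))

theorem card_O (p : UP T K L K' L') : Nat.card 𝐎(L) = 2 * Nat.card 𝐙(T) := by
  rw [p.edge.card_O p.symm.edge, le_antisymm p.inf_le_oz (le_inf p.h.oz_le_O p.h'.oz_le_O)]

theorem le2W (p : UP T K L K' L') : Le2 (wOf K) 𝐎(L) := le2_of_card_le (by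
  have := p.edge.card_O_le p.symm.edge
  rw [inf_eq_left.2 p.h.W_le, p.h.jc.card]; omega)

theorem not_W_le_cent (p : UP T K L K' L') : ¬ wOf K ≤ 𝐂(T) := fun e =>
  p.h.jc.not_le_cent ((J_le T).trans (le_centralizer_comm.1 e))

theorem not_W_le (p : UP T K L K' L') : ¬ wOf K ≤ 𝐎(L') := fun e =>
  p.not_W_le_cent ((le_inf p.h.W_le e).trans (p.inf_le_oz.trans (oz2_le_cent T)))

theorem comm_le (p : UP T K L K' L') : ⁅T, T⁆ ≤ wOf K := by
  have h1 : T ≤ 𝐍(wOf K) := p.h.syl.le.trans (p.h.le_norm_W p.hO)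
  have h2 : ⁅𝐎(L), T⁆ ≤ wOf K := p.le2W.comm_le h1 (p.h.syl.le.trans (le_normalizer_pCoreOf 2 L))
  refine (commutator_mono p.le_sup le_rfl).trans (commutator_sup_le_left (p.h.la.O_le.trans h1)
    (p.h'.la.O_le.trans h1) h2 ((commutator_mono le_rfl p.le_sup).trans (commutator_sup_le_right
    (p.h.la.O_le.trans h1) (p.h'.la.O_le.trans h1) ?_ ((H24.EA.commutator_self p.symm.ea).le.trans bot_le))))
  rw [commutator_comm]
  exact (commutator_mono le_rfl p.h'.la.O_le).trans h2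

theorem inf_W_le (p : UP T K L K' L') : wOf K ⊓ wOf K' ≤ 𝐙(𝐉(T)) ⊓ wOf K :=
  le_inf ((inf_le_inf p.h.W_le p.h'.W_le).trans (p.inf_le_oz.trans (oz_le_oz_J T))) inf_le_left

theorem comm_ne_bot (p : UP T K L K' L') : ⁅T, T⁆ ≠ ⊥ := fun e =>
  p.not_W_le_cent (p.h.W_le_T.trans (le_centralizer_of_commutator_eq_bot e))

theorem card_comm (p : UP T K L K' L') : Nat.card (⁅T, T⁆ : Subgroup G) = 2 := by
  have h1 := card_le_of_le ((le_inf p.comm_le p.symm.comm_le).trans p.inf_W_le)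
  have h2 := (one_lt_card_iff_ne_bot _).2 p.comm_ne_bot
  rw [p.h.jc.card_oz_inf_wOf] at h1
  omega

theorem comm_le_oz (p : UP T K L K' L') : ⁅T, T⁆ ≤ 𝐙(T) :=
  (le_inf (p.comm_le.trans p.h.W_le) (p.symm.comm_le.trans p.h'.W_le)).trans p.inf_le_oz

theorem norm_le_cent (p : UP T K L K' L') : 𝐍(T) ≤ 𝐂(⁅T, T⁆) :=
  (le_normalizer_commutator le_rfl le_rfl).trans (normalizer_le_centralizer_of_card_le_two p.card_comm.le)

theorem sq_mem (p : UP T K L K' L') {t : G} (ht : t ∈ T) : t * t ∈ ⁅T, T⁆ := by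
  obtain ⟨e, he, f, hf, rfl⟩ := (mem_sup_of_le_normalizer_left (p.h'.la.O_le.trans (p.h.syl.le.trans
    (le_normalizer_pCoreOf 2 L)))).1 (p.le_sup ht)
  have : e * f * (e * f) = ⁅e, f⁆ := by
    rw [commutatorElement_def, inv_eq_of_mul_eq_one_right (ea_mul_self p.ea he),
      inv_eq_of_mul_eq_one_right (ea_mul_self p.symm.ea hf)]
    group
  rw [this]
  exact commutator_mem_commutator (p.h.la.O_le he) (p.h'.la.O_le hf)

theorem D_le (p : UP T K L K' L') : wOf K ⊔ wOf K' ≤ T := sup_le p.h.W_le_T p.h'.W_le_T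

theorem card_D (p : UP T K L K' L') : Nat.card (wOf K ⊔ wOf K' : Subgroup G) = 8 := by
  have h1 := H24.card_sup_mul_card_inf' (p.h'.W_le_T.trans (p.h.syl.le.trans (p.h.le_norm_W p.hO)))
  have h2 := card_le_of_le p.inf_W_le
  have h3 := card_le_of_le (le_inf p.comm_le p.symm.comm_le)
  rw [p.h.jc.card_oz_inf_wOf] at h2
  rw [p.card_comm] at h3
  rw [p.h.jc.card, p.h'.jc.card, le_antisymm h2 h3] at h1
  omega

theorem le2D (p : UP T K L K' L') : Le2 (wOf K ⊔ wOf K') T := le2_of_card_le (by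
  have := p.edge.card_O_le p.symm.edge
  rw [inf_eq_left.2 p.D_le, p.card_D, p.card_T]; omega)

theorem inf_D (p : UP T K L K' L') : 𝐎(L) ⊓ (wOf K ⊔ wOf K') = wOf K := by
  have h1 := (p.le2.mono_right p.D_le).card_eq fun e => p.symm.not_W_le (le_sup_right.trans e)
  refine (eq_of_le_of_card_ge (le_inf p.h.W_le le_sup_left) ?_).symm
  rw [p.card_D] at h1
  rw [p.h.jc.card]
  omega

variable {a : G}

theorem not_conj_mem (p : UP T K L K' L') (ha : a ∈ 𝐙(T)) (haK : a ∈ 𝐂(K)) (ha1 : a ≠ 1) (g : G) :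
    g * a * g⁻¹ ∉ wOf K ⊔ wOf K' := by
  intro hu
  obtain ⟨w, hw, hw1⟩ := exists_ne_one_of_ne_bot p.comm_ne_bot
  have hCa := p.h.cent_le (oz_le_oz_J T ha) haK ha1
  obtain ⟨n, hn⟩ : ∃ n : G, n * a * n⁻¹ = w := by
    have h2 : g * a * g⁻¹ * (g * a * g⁻¹) = 1 := by
      rw [← cj_mul', ea_mul_self (oz2_ea T) ha, mul_one, mul_inv_cancel]
    have : ∃ k : G, k * (g * a * g⁻¹) * k⁻¹ = w := by
      rcases p.mem_or (p.D_le hu) h2 with h | h
      · obtain ⟨k, -, hk⟩ := four_trans p.h.jc.card (wOf_ea K) (le_norm_wOf K) p.h.jc.k3.wOf_inf_cent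
          (p.inf_D.le ⟨h, hu⟩) (p.comm_le hw) (cj_ne_one ha1) hw1
        exact ⟨k, hk⟩
      · obtain ⟨k, -, hk⟩ := four_trans p.h'.jc.card (wOf_ea K') (le_norm_wOf K') p.h'.jc.k3.wOf_inf_cent
          (p.symm.inf_D.le ⟨h, (sup_comm (wOf K) (wOf K')).le hu⟩) (p.symm.comm_le hw) (cj_ne_one ha1) hw1
        exact ⟨k, hk⟩
    obtain ⟨k, hk⟩ := this
    exact ⟨k * g, by rw [← hk]; group⟩
  have h1 : T ^ᶜ n⁻¹ ≤ L := le_trans (by
    rw [← le_cj_iff, cj_centralizer, cj_zpowers, hn]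
    exact (le_cent_oz2 T).trans (H69.centralizer_anti (zpowers_le_of_mem (p.comm_le_oz hw)))) hCa
  obtain ⟨l, hl, h2⟩ := p.h.syl.exists_cj_le (isPGroup_cj p.h.isP n⁻¹) h1
  rw [cj_cj] at h2
  have h3 := conj_eq_of_mem_centralizer (p.norm_le_cent (mem_normalizer_of_cj_le h2)) hw
  have h4 : L ≤ 𝐂(zpowers a) := (p.h.eq_sup p.hO).le.trans (sup_le
    (le_centralizer_comm.1 (zpowers_le_of_mem haK))
    ((le_cent_oz2 T).trans (H69.centralizer_anti (zpowers_le_of_mem ha))))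
  have h5 : a = w := by
    have : l * n⁻¹ * (n * a * n⁻¹) * (l * n⁻¹)⁻¹ = l * a * l⁻¹ := by group
    rw [← h3, ← hn, this, conj_eq_of_mem_cent (h4 hl)]
  exact ha1 (mem_bot.1 (p.h.jc.k3.wOf_inf_cent ▸ mem_inf.2 ⟨h5 ▸ p.comm_le hw, haK⟩))

end UP

namespace UQ

variable {T K L S : Subgroup G} {a : G}

theorem le_cent (hO : pCore 2 G = ⊥) (h : UQ T K L) (ha : a ∈ 𝐙(T)) (haK : a ∈ 𝐂(K)) : L ≤ 𝐂(zpowers a) :=
  (h.eq_sup hO).le.trans (sup_le (le_centralizer_comm.1 (zpowers_le_of_mem haK))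
    ((le_cent_oz2 T).trans (H69.centralizer_anti (zpowers_le_of_mem ha))))

theorem le2_norm (h : UQ T K L) (hS : IsSylowIn 2 S ⊤) (hTS : T ≤ S) (hc : Nat.card 𝐙(T) = 4)
    (ha : a ∈ 𝐙(T)) (haK : a ∈ 𝐂(K)) (ha1 : a ≠ 1) : Le2 T (S ⊓ 𝐍(T)) := by
  obtain ⟨z, hz, hz1⟩ := exists_ne_one_of_ne_bot
    (oz2_ne_bot hS.isP fun e => h.ne_bot (eq_bot_iff.2 (hTS.trans e.le)))
  refine (le2_cent_four hc (oz2_ea T) (h.oz_le hTS hz) hz1).mono (fun x hx => h.mem_of_mem hS.isP hx.2.1 hx.2.2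
    (h.cent_le (oz_le_oz_J T ha) haK ha1 (H69.centralizer_anti (zpowers_le_of_mem ha) hx.1))) ?_
  exact le_inf (inf_le_right.trans (norm_le_norm_oz2 T))
    (inf_le_left.trans ((le_cent_oz2 S).trans (H69.centralizer_anti (zpowers_le_of_mem hz))))

theorem J_eq_of (hO : pCore 2 G = ⊥) (h : UQ T K L) (hS : IsSylowIn 2 S ⊤) (hTS : T ≤ S)
    (hc : Nat.card 𝐙(T) = 4) (ha : a ∈ 𝐙(T)) (haK : a ∈ 𝐂(K)) (ha1 : a ≠ 1) : 𝐉(S ⊓ 𝐍(T)) = T := by
  obtain ⟨K', L', h', hne⟩ := h.exists_other hO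
  have p : UP T K L K' L' := ⟨hO, h, h', hne⟩
  have h0 : T ≤ S ⊓ 𝐍(T) := le_inf hTS le_normalizer
  have h1 : 𝐉(S ⊓ 𝐍(T)) ≤ T := H24.thompsonSubgroupOf_le_iff.2 fun A hA y hy => by
    by_contra hyT
    obtain ⟨hA1, hA2, hA3⟩ := H24.mem_maxEA.1 hA
    have hyL : y ∉ L := fun e => hyT (h.mem_of_mem hS.isP (hA1 hy).1 (hA1 hy).2 e)
    have q := h.up_cj hO (hA1 hy).2 hyL
    have h2 := hA3 _ (h.la.O_le.trans h0) p.ea
    have h3 := ((h.le2_norm hS hTS hc ha haK ha1).mono_right hA1).card_le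
    have h4 : (T ⊓ A) ^ᶜ y = T ⊓ A := cj_eq_of_mem_centralizer (H69.centralizer_anti inf_le_right
      (H24.EA.le_centralizer hA2 hy))
    have h5 : T ⊓ A ≤ 𝐙(T) := le_trans (by
      have := q.le_or inf_le_left (H24.EA.mono hA2 (inf_le_right : T ⊓ A ≤ A))
      rw [← cj_O] at this ⊢
      rcases this with e | e
      · exact le_inf e (h4.ge.trans (cj_mono y e))
      · exact le_inf (cj_le_cj_iff.1 (h4.le.trans e)) e) q.inf_le_oz
    have h6 := eq_of_le_of_card_ge h5 (by rw [p.card_O] at h2; omega)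
    exact hyL (h.cent_le (oz_le_oz_J T ha) haK ha1 (H69.centralizer_anti (zpowers_le_of_mem (h6.ge ha).2)
      (H24.EA.le_centralizer hA2 hy)))
  rw [← J_eq_of_le_cj h1 (g := 1) (by rwa [cj_one]), p.J_eq]

theorem le_norm_T (hO : pCore 2 G = ⊥) (h : UQ T K L) (hS : IsSylowIn 2 S ⊤) (hTS : T ≤ S)
    (hc : Nat.card 𝐙(T) = 4) (ha : a ∈ 𝐙(T)) (haK : a ∈ 𝐂(K)) (ha1 : a ≠ 1) : S ≤ 𝐍(T) :=
  le_of_inf_normalizer_le hS.isP (inf_le_right.trans ((norm_le_norm_J _).trans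
    (by rw [h.J_eq_of hO hS hTS hc ha haK ha1])))

theorem conj_mem (hO : pCore 2 G = ⊥) (h : UQ T K L) (hS : IsSylowIn 2 S ⊤) (hTS : T ≤ S)
    (hc : Nat.card 𝐙(T) = 4) (ha : a ∈ 𝐙(T)) (haK : a ∈ 𝐂(K)) (ha1 : a ≠ 1) {g : G}
    (hg : g * a * g⁻¹ ∈ S) : g * a * g⁻¹ ∈ T := by
  by_contra hyT
  obtain ⟨y, hy⟩ : ∃ y, y = g * a * g⁻¹ := ⟨_, rfl⟩
  rw [← hy] at hg hyT
  have ea := oz2_ea T
  have hn := h.le_norm_T hO hS hTS hc ha haK ha1
  have hCa := h.cent_le (oz_le_oz_J T ha) haK ha1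
  have hyL : y ∉ L := fun e => hyT (h.mem_of_mem hS.isP hg (hn hg) e)
  have q := h.up_cj hO (hn hg) hyL
  have haa := ea_mul_self ea ha
  have hyy : y * y = 1 := by rw [hy, ← cj_mul', haa, mul_one, mul_inv_cancel]
  have hy1 : y⁻¹ = y := inv_eq_of_mul_eq_one_right hyy
  have hyZ : y ∈ 𝐍(𝐙(T)) := norm_le_norm_oz2 T (hn hg)
  have hya : y * a * y⁻¹ ≠ a := fun e => hyL (hCa (mem_cent_of_conj_eq e))
  have uniq : ∀ b ∈ 𝐙(T), ∀ c ∈ 𝐙(T), b ≠ 1 → c ≠ 1 → y * b * y⁻¹ = b → y * c * y⁻¹ = c → b = c :=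
    fun b hb c hc' b1 c1 e1 e2 => by
      by_contra hne
      exact hya (conj_eq_of_mem_centralizer (four_cent hc ea hb hc' b1 c1 hne e1 e2) ha)
  obtain ⟨e, he, he'⟩ := exists_not_mem_of_not_le q.symm.not_O_le
  rw [← cj_O] at he'
  obtain ⟨f, hf⟩ : ∃ f, f = y * e * y⁻¹ := ⟨_, rfl⟩
  have heT := h.la.O_le he
  have hfT : f ∈ T := hf ▸ conj_mem_of_mem_normalizer (hn hg) heT
  have hee := ea_mul_self q.ea he
  have hff : f * f = 1 := by rw [hf, ← cj_mul', hee, mul_one, mul_inv_cancel]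
  have hfe : y * f * y⁻¹ = e := by
    have : y * (y * e * y⁻¹) * y⁻¹ = (y * y) * e * (y * y)⁻¹ := by group
    rw [hf, this, hyy]; group
  obtain ⟨w, hw⟩ : ∃ w, w = e * f * (e * f) := ⟨_, rfl⟩
  have hwT : w ∈ ⁅T, T⁆ := hw ▸ q.sq_mem (mul_mem heT hfT)
  have hw1 : w ≠ 1 := fun e1 => by
    rcases q.mem_or (mul_mem heT hfT) (hw ▸ e1) with h1 | h1
    · have h2 := mul_mem (inv_mem he) h1
      rw [inv_mul_cancel_left] at h2
      exact he' (hfe ▸ cj_mem y h2)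
    · rw [← cj_O] at h1
      have h2 := mul_mem h1 (inv_mem (hf ▸ cj_mem y he : f ∈ _))
      rw [mul_inv_cancel_right] at h2
      exact he' h2
  have hyw := conj_eq_of_mem_centralizer (q.norm_le_cent (hn hg)) hwT
  have hb := conj_mem_of_mem_normalizer hyZ ha
  have h1 : y * a * y⁻¹ * a = w := uniq _ (mul_mem hb ha) _ (q.comm_le_oz hwT)
    (fun e1 => hya (by rw [eq_inv_of_mul_eq_one_left e1, inv_eq_of_mul_eq_one_right haa])) hw1 (by
      have : y * (y * a * y⁻¹) * y⁻¹ = (y * y) * a * (y * y)⁻¹ := by group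
      rw [cj_mul', this, hyy, one_mul, inv_one, mul_one, H24.EA.comm ea ha hb]) hyw
  have haT : ∀ t ∈ T, t * a = a * t := fun t ht => oz2_le_cent T ha t ht
  obtain ⟨v, hv⟩ : ∃ v, v = e * f * a := ⟨_, rfl⟩
  have hvT : v ∈ T := hv ▸ mul_mem (mul_mem heT hfT) (oz2_le T ha)
  have hv2 : v * v = w := by
    calc v * v = e * f * (a * (e * f)) * a := by rw [hv]; group
      _ = e * f * (e * f) * (a * a) := by rw [← haT _ (mul_mem heT hfT)]; group
      _ = w := by rw [haa, mul_one, hw]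
  have hyv : y * v * y⁻¹ = v := by
    have e1 : y * a * y⁻¹ = w * a := by rw [← h1, mul_assoc _ a a, haa, mul_one]
    rw [hv, cj_mul', cj_mul', ← hf, hfe, e1, hw]
    calc f * e * (e * f * (e * f) * a) = f * (e * e) * f * (e * f * a) := by group
      _ = e * f * a := by rw [hee, mul_one, hff, one_mul]
  have h2 : zpowers v ^ᶜ g⁻¹ ≤ L := le_trans (by
    rw [← le_cj_iff, cj_centralizer, cj_zpowers, ← hy]
    exact le_centralizer_comm.1 (zpowers_le_of_mem (mem_cent_of_conj_eq hyv))) hCa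
  obtain ⟨l, hl, h3⟩ := h.syl.exists_cj_le (isPGroup_cj (h.isP.to_le (zpowers_le_of_mem hvT)) g⁻¹) h2
  rw [cj_cj] at h3
  obtain ⟨n, hn'⟩ : ∃ n, n = l * g⁻¹ := ⟨_, rfl⟩
  rw [← hn'] at h3
  have h4 : n * w * n⁻¹ = w := eq_of_card_two q.card_comm (by
    rw [← hv2, cj_mul']
    exact q.sq_mem (h3 (cj_mem n (mem_zpowers v)))) hwT (cj_ne_one hw1) hw1
  have h5 : 𝐙(S) ≤ zpowers w := fun z hz => by
    by_cases hz1 : z = 1
    · exact hz1 ▸ one_mem _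
    · rw [uniq z (h.oz_le hTS hz) w (q.comm_le_oz hwT) hz1 hw1
        (conj_eq_of_mem_centralizer (le_cent_oz2 S hg) hz) hyw]
      exact mem_zpowers w
  have h6 : n ∈ 𝐍(T) := by
    have := h.J_eq_of hO hS hTS hc ha haK ha1
    rw [inf_eq_left.2 hn] at this
    exact this ▸ norm_le_norm_J S (h.zn.cent_le_norm hS (H69.centralizer_anti h5 (mem_cent_of_conj_eq h4)))
  refine hyT ?_
  have h7 : y = n⁻¹ * a * n := by
    rw [hy, hn', ← conj_eq_of_mem_cent (h.le_cent hO ha haK (inv_mem hl))]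
    simp only [conj_eq_of_mem_cent (h.le_cent hO ha haK (inv_mem hl))]
    have : (l * g⁻¹)⁻¹ * a * (l * g⁻¹) = g * (l⁻¹ * a * l⁻¹⁻¹) * g⁻¹ := by group
    rw [this, conj_eq_of_mem_cent (h.le_cent hO ha haK (inv_mem hl))]
  exact h7 ▸ conj_mem_of_mem_normalizer' h6 (oz2_le T ha)

theorem not_mem_res (hO : pCore 2 G = ⊥) (h : UQ T K L) (hc : Nat.card 𝐙(T) = 4) (ha : a ∈ 𝐙(T))
    (haK : a ∈ 𝐂(K)) (ha1 : a ≠ 1) : a ∉ pResidual 2 G := by
  obtain ⟨S, hS, hTS⟩ := exists_isSylowIn_le h.isP le_top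
  have key : ∀ K' L', UP T K L K' L' → ⁅S, S⁆ ≤ wOf K ⊔ wOf K' → a ∉ pResidual 2 G := fun K' L' p hD => by
    have h1 : a ∉ wOf K ⊔ wOf K' := by simpa using p.not_conj_mem ha haK ha1 1
    exact not_mem_res_of_transfer hS hD (hTS (oz2_le T ha)) (ea_mul_self (oz2_ea T) ha) h1 fun g hg =>
      p.le2D.inv_mul (oz2_le T ha) (h.conj_mem hO hS hTS hc ha haK ha1 hg) h1 (p.not_conj_mem ha haK ha1 g)
  by_cases hST : S ≤ T
  · obtain ⟨K', L', h', hne⟩ := h.exists_other hO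
    have p : UP T K L K' L' := ⟨hO, h, h', hne⟩
    exact key K' L' p ((commutator_mono hST hST).trans (p.comm_le.trans le_sup_left))
  · obtain ⟨x, hx, hxT⟩ := exists_not_mem_of_not_le hST
    have hn := h.le_norm_T hO hS hTS hc ha haK ha1
    have p := h.up_cj hO (hn hx) fun e => hxT (h.mem_of_mem hS.isP hx (hn hx) e)
    have h1 : Le2 T S := (h.le2_norm hS hTS hc ha haK ha1).mono_right (le_inf le_rfl hn)
    have hTW : T ≤ 𝐍(wOf K) := h.syl.le.trans (h.le_norm_W hO)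
    refine key _ _ p (p.le2D.comm_le_of_le2 h1 (h1.le_of_mem (inf_le_left.trans (H69.le_normalizer_sup hTW
      (p.h'.syl.le.trans (p.h'.le_norm_W hO)))) hx hxT ?_) hn)
    rw [← cj_eq_self_iff, ← cj_wOf, cj_sup, cj_cj, cj_eq_of_mem_normalizer (hTW (h1 x hx x hx hxT hxT)),
      sup_comm]

theorem K_le_res (h : UQ T K L) : K ≤ pResidual 2 G := by
  exact h.jc.k3.res.ge.trans ((res_mono le_top).trans res_top.le)

end UQ

namespace UP

variable {T K L K' L' : Subgroup G}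

theorem inf_res (p : UP T K L K' L') : 𝐎(L) ⊓ pResidual 2 G = wOf K := by
  have hW := (wOf_le K).trans p.h.K_le_res
  refine le_antisymm ?_ (le_inf p.h.W_le hW)
  have h1 := p.h.card_cases p.h' rfl p.ne
  rw [p.J_eq] at h1
  rcases h1 with hc | ⟨hc, a, ha, haK, ha1⟩
  · rw [eq_of_le_of_card_ge p.h.W_le (by rw [p.card_O, hc, p.h.jc.card])]
    exact inf_le_left
  · intro x hx
    by_contra hxW
    exact p.h.not_mem_res p.hO hc ha haK ha1
      (p.le2W.le_of_mem (inf_le_left.trans hW) hx.1 hxW hx.2 (p.h.oz_le_O ha))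

theorem cent_inf_res (p : UP T K L K' L') : 𝐂(wOf K) ⊓ pResidual 2 G ≤ wOf K :=
  (inf_le_inf_right _ (p.h.cent_W p.hO)).trans p.inf_res.le

theorem card_inf_res (p : UP T K L K' L') : Nat.card (T ⊓ pResidual 2 G : Subgroup G) = 8 := by
  rw [(p.le2.mono_right inf_le_left).card_eq fun e => p.symm.not_W_le
    ((le_inf p.h'.W_le_T ((wOf_le K').trans p.h'.K_le_res)).trans e), ← inf_assoc,
    inf_eq_left.2 p.h.la.O_le, p.inf_res, p.h.jc.card]

theorem L_inf_res (p : UP T K L K' L') : L ⊓ pResidual 2 G = K ⊔ (T ⊓ pResidual 2 G) := by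
  rw [← dedekind_left (p.h.norm p.hO) p.h.K_le_res, ← p.h.eq_sup p.hO]

theorem iso_res (p : UP T K L K' L') : Nonempty ((L ⊓ pResidual 2 G : Subgroup G) ≃* Equiv.Perm (Fin 4)) := by
  have h1 := p.h.jc.k3.relIndex_sup (p.h.isP.to_le (inf_le_left : T ⊓ pResidual 2 G ≤ T))
    (le_inf p.h.O_le_T ((pCoreOf_le 2 K).trans p.h.K_le_res)) (inf_le_left.trans (p.h.norm p.hO))
  have h2 := H1.card_mul_relIndex_of_le (le_sup_right : T ⊓ pResidual 2 G ≤ K ⊔ (T ⊓ pResidual 2 G))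
  rw [h1, p.card_inf_res, ← p.L_inf_res] at h2
  have hK : K ≤ L ⊓ pResidual 2 G := le_inf p.h.KL p.h.K_le_res
  exact rec4 h2.symm p.h.jc.card ((wOf_le K).trans hK) (inf_le_left.trans (p.h.le_norm_W p.hO))
    ((le_inf inf_le_right (inf_le_left.trans inf_le_right)).trans p.cent_inf_res)
    (eq_bot_iff.2 ((inf_le_inf_left _ (H69.centralizer_anti hK)).trans p.h.jc.k3.wOf_inf_cent.le))

theorem eq_W (p : UP T K L K' L') {Q : Subgroup G} (hQ : IsPGroup 2 Q) (h1 : Q ≠ ⊥) (hH : Q ≤ pResidual 2 G)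
    (hn : L ⊓ pResidual 2 G ≤ 𝐍(Q)) : Q = wOf K := by
  have hK : K ≤ L ⊓ pResidual 2 G := le_inf p.h.KL p.h.K_le_res
  have h2 : wOf K ≤ Q := (p.h.jc.k3.irred p.h.jc.card ((le_inf inf_le_right (inf_le_left.trans hH)).trans
    p.cent_inf_res) (H69.le_normalizer_inf (hK.trans hn) (H69.le_normalizer_centralizer (le_norm_wOf K)))
    (inf_centralizer_ne_bot hQ (wOf_isPGroup K) ((wOf_le K).trans (hK.trans hn)) h1)).ge.trans inf_le_left
  refine le_antisymm (le_of_inf_normalizer_le hQ ?_) h2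
  rw [inf_eq_right.2 h2, p.h.norm_W p.hO]
  have h3 := p.h.jc.k3.O_sup_eq p.h.jc.card (p.h.isP.to_le (inf_le_left : T ⊓ pResidual 2 G ≤ T))
    (inf_le_left.trans (p.h.norm p.hO))
  rw [← p.L_inf_res] at h3
  refine le_trans (le_inf ?_ (inf_le_left.trans hH)) p.cent_inf_res
  exact (le_pCoreOf (hQ.to_le inf_le_left) (le_inf inf_le_right (inf_le_left.trans hH))
    (H69.le_normalizer_inf hn (inf_le_left.trans le_normalizer))).trans (h3.le.trans inf_le_right)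

theorem max_res (p : UP T K L K' L') : IsMaximalTwoLocal (L.subgroupOf (pResidual 2 G)) := by
  have hW := (wOf_le K).trans p.h.K_le_res
  have h1 : 𝐍((wOf K).subgroupOf (pResidual 2 G)) = L.subgroupOf (pResidual 2 G) := by
    rw [← H69.map_subtype_inj, map_subtype_normalizer, map_subgroupOf_eq_of_le hW, p.h.norm_W p.hO,
      subgroupOf_map_subtype, inf_comm]
  refine ⟨h1 ▸ isTwoLocal_normalizer (isPGroup_subgroupOf (wOf_isPGroup K) _) fun e => ?_, ?_⟩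
  · exact K3.wOf_ne_bot p.h.jc.card (by rw [← map_subgroupOf_eq_of_le hW, e, Subgroup.map_bot])
  · rintro N ⟨Q, hQ, hQ1, rfl⟩ hle
    have h2 := map_normalizer_le (pResidual 2 G).subtype hle
    rw [subgroupOf_map_subtype] at h2
    rw [← h1, ← p.eq_W (hQ.map _) (fun e => hQ1 (map_subtype_eq_bot_iff.1 e)) (map_subtype_le _) h2,
      subgroupOf_map_subtype']

end UP

theorem ZN.main (hG : ZN G) (hO : pCore 2 G = ⊥) :
    (∃ M : Subgroup G, IsStronglyEmbedded M) ∨ ∃ T K L K' L' : Subgroup G, UP T K L K' L' := by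
  obtain ⟨S, hS⟩ := exists_isSylowIn 2 (⊤ : Subgroup G)
  have h1 : S ≠ ⊥ := hS.dvd_card_iff.1 (by rw [card_top]; exact even_iff_two_dvd.1 hG.ch.1)
  have h2 := isTwoLocal_normalizer (isPGroup_J hS.isP) (J_ne_bot hS.isP h1)
  rcases (straddlingTwoSubgroups 𝐍(𝐉(S))).eq_empty_or_nonempty with h | h
  · exact .inl ⟨_, se_of_empty hO h2 h⟩
  · obtain ⟨T, hT⟩ := exists_mstr h
    obtain ⟨K, L, h3, -⟩ := MX.exists_uq ⟨hG, good_of hS le_rfl, hT⟩
    obtain ⟨K', L', h4, h5⟩ := h3.exists_other hO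
    exact .inr ⟨T, K, L, K', L', hO, h3, h4, h5⟩

end H70
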