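import Mathlib
import Cfsg.Agent.Base
import Cfsg.Agent.Lib.LocStruct.PReduced
import Cfsg.Agent.Lib.Thompson.Stable

/-!
There is no primitive pair of characteristic `p` both of whose members are `p`-stable
(Kurzweil–Stellmacher 10.1.5, 10.1.6).
-/

set_option autoImplicit false
set_option linter.unusedSectionVars false
set_option linter.unusedVariables false

namespace H70

open Subgroup H69 Cfsg
open scoped commutatorElement Pointwise

variable {G : Type*} [Group G] {p : ℕ}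

/-- walks of length `n` for a relation. -/
inductive Near {α : Type*} (R : α → α → Prop) : ℕ → α → α → Prop
  | refl (a : α) : Near R 0 a a
  | step {n : ℕ} {a b c : α} : Near R n a b → R b c → Near R (n + 1) a c

namespace Near
variable {α : Type*} {R : α → α → Prop}

theorem cons {n : ℕ} {a b c : α} (h : R a b) (h' : Near R n b c) : Near R (n + 1) a c := by
  induction h' with
  | refl => exact step (refl a) h
  | step _ h2 ih => exact step (ih h) h2

theorem symm (hR : ∀ a b, R a b → R b a) {n : ℕ} {a b : α} (h : Near R n a b) : Near R n b a := by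
  induction h with
  | refl => exact refl _
  | step _ h2 ih => exact cons (hR _ _ h2) ih

theorem unsnoc {n : ℕ} {a c : α} (h : Near R (n + 1) a c) : ∃ b, Near R n a b ∧ R b c := by
  cases h with
  | step h1 h2 => exact ⟨_, h1, h2⟩

theorem eq_of_zero {a c : α} (h : Near R 0 a c) : a = c := by
  cases h
  rfl

theorem uncons (hR : ∀ a b, R a b → R b a) {n : ℕ} {a c : α} (h : Near R (n + 1) a c) :
    ∃ b, R a b ∧ Near R n b c := by
  obtain ⟨b, h1, h2⟩ := (h.symm hR).unsnoc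
  exact ⟨b, hR _ _ h2, h1.symm hR⟩

theorem map (f : α → α) (hf : ∀ a b, R a b → R (f a) (f b)) {n : ℕ} {a b : α} (h : Near R n a b) :
    Near R n (f a) (f b) := by
  induction h with
  | refl => exact refl _
  | step _ h2 ih => exact step ih (hf _ _ h2)

end Near

/-- `D` acts `p`-stably on all `p`-subgroups it normalizes. -/
def Stab (p : ℕ) (D : Subgroup G) : Prop :=
  ∀ U X : Subgroup G, IsPGroup p U → D ≤ 𝐍(U) → X ≤ D → ⁅⁅U, X⁆, X⁆ = ⊥ →
    ∃ N : Subgroup G, X ≤ N ∧ N ≤ D ∧ D ≤ 𝐍(N) ∧ 𝐑(p, N) ≤ 𝐂(U)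

theorem Stab.cj {D : Subgroup G} (h : Stab p D) (g : G) : Stab p (D ^ᶜ g) := fun U X h1 h2 h3 h4 => by
  obtain ⟨N, e1, e2, e3, e4⟩ := h (U ^ᶜ g⁻¹) (X ^ᶜ g⁻¹) (isPGroup_cj h1 _)
    (by rw [← cj_normalizer]; exact cj_le_iff.1 h2) (le_cj_iff.1 h3)
    (by rw [← cj_commutator, ← cj_commutator, h4, cj_bot])
  refine ⟨N ^ᶜ g, le_cj_iff.2 e1, cj_mono g e2, ?_, ?_⟩
  · rw [← cj_normalizer]
    exact cj_mono g e3
  · rw [← cj_res, cj_le_iff, cj_centralizer]
    exact e4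

theorem stab_of_abelian [Finite G] [Fact p.Prime] (hp : p ≠ 2) {D : Subgroup G} (T : Sylow 2 D)
    (hT : IsMulCommutative T) : Stab p D := fun U X h1 h2 h3 h4 => by
  haveI : (𝐂(U).subgroupOf D).Normal :=
    normal_subgroupOf_of_le_normalizer (H69.le_normalizer_centralizer h2)
  refine ⟨(modCore p (𝐂(U).subgroupOf D) ⊤).map D.subtype, fun a ha => ?_, map_subtype_le _, ?_, ?_⟩
  · have := H24.mem_pCore_of_quadratic_of_abelian_sylow_two p hp h1 h2 T hT
      (QuotientGroup.mk' (𝐂(U).subgroupOf D)) (QuotientGroup.mk'_surjective _)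
      (fun g hg => (QuotientGroup.eq_one_iff g).2 hg) ⟨a, h3 ha⟩
      (le_trans (h4 ▸ commutator_mono (commutator_mono le_rfl (zpowers_le.2 ha)) (zpowers_le.2 ha)) bot_le)
    rw [← comap_mk'_pCore_eq_modCore]
    exact ⟨⟨a, h3 ha⟩, this, rfl⟩
  · exact normal_iff_le_normalizer_map.1 (normal_iff_top_le_normalizer.2 (le_normalizer_modCore _ _))
  · rw [← map_subtype_res]
    exact le_subgroupOf_iff.1 (res_modCore_le _ _)

/-- a primitive pair of characteristic `p` with `p`-stable members. -/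
structure PP (p : ℕ) (D E : Subgroup G) : Prop where
  ne : D ≠ E
  prim1 : ∀ A : Subgroup G, A ≠ ⊥ → A ≤ D ⊓ E → D ≤ 𝐍(A) → E ⊓ 𝐍(A) ≤ D
  prim2 : ∀ A : Subgroup G, A ≠ ⊥ → A ≤ D ⊓ E → E ≤ 𝐍(A) → D ⊓ 𝐍(A) ≤ E
  c1 : CharP p D
  c2 : CharP p E
  o1 : pCoreOf p D ≤ E
  o2 : pCoreOf p E ≤ D
  s1 : Stab p D
  s2 : Stab p E

/-- the subgroup generated by the `Y_E`, `E` a neighbour of `D`. -/
def nbW (p : ℕ) (D : Subgroup G) : Subgroup G := ⨆ E : {E : Subgroup G // PP p D E}, 𝐘(p, E.1)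

namespace PP
variable {D E : Subgroup G}

theorem symm (h : PP p D E) : PP p E D :=
  ⟨h.ne.symm, fun A h1 h2 h3 => h.prim2 A h1 (inf_comm E D ▸ h2) h3,
    fun A h1 h2 h3 => h.prim1 A h1 (inf_comm E D ▸ h2) h3, h.c2, h.c1, h.o2, h.o1, h.s2, h.s1⟩

theorem prim1_cj (h : PP p D E) (g : G) (A : Subgroup G) (h1 : A ≠ ⊥) (h2 : A ≤ D ^ᶜ g ⊓ E ^ᶜ g)
    (h3 : D ^ᶜ g ≤ 𝐍(A)) : E ^ᶜ g ⊓ 𝐍(A) ≤ D ^ᶜ g := by
  have := h.prim1 (A ^ᶜ g⁻¹) (fun e => h1 (cj_eq_bot_iff.1 e)) (by rwa [← cj_inf, le_cj_iff] at h2)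
    (by rw [← cj_normalizer]; exact cj_le_iff.1 h3)
  rwa [← cj_le_cj_iff (g := g), cj_inf, cj_normalizer, cj_inv_cj] at this

theorem cj (h : PP p D E) (g : G) : PP p (D ^ᶜ g) (E ^ᶜ g) :=
  ⟨fun e => h.ne (cj_inj.1 e), h.prim1_cj g, fun A h1 h2 h3 => h.symm.prim1_cj g A h1 (inf_comm (D ^ᶜ g) _ ▸ h2) h3,
    h.c1.conj g, h.c2.conj g, cj_pCoreOf (p := p) D g ▸ cj_mono g h.o1, cj_pCoreOf (p := p) E g ▸ cj_mono g h.o2,
    h.s1.cj g, h.s2.cj g⟩

theorem O_ne_bot (h : PP p D E) : pCoreOf p D ≠ ⊥ := fun e => by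
  have h0 : ∀ L : Subgroup G, CharP p L → pCoreOf p L = ⊥ → L = ⊥ := fun L h1 h2 => by
    have h3 : L ⊓ 𝐂(pCoreOf p L) ≤ pCoreOf p L := h1
    rwa [h2, H69.centralizer_bot, inf_top_eq, le_bot_iff] at h3
  have h1 := h0 D h.c1 e
  exact h.ne (h1.trans (h0 E h.c2 (eq_bot_iff.2 (h1 ▸ h.o2))).symm)

variable [Finite G] [Fact p.Prime]

theorem Y_le_O (h : PP p D E) : 𝐘(p, D) ≤ pCoreOf p E := by
  obtain ⟨N, h1, h2, h3, h4⟩ := h.s2 (pCoreOf p E) 𝐘(p, D) (isPGroup_pCoreOf p E) (le_normalizer_pCoreOf p E)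
    ((Y_le_pCoreOf D).trans h.o1) (commutator_eq_bot_of_le_centralizer
      ((commutator_le_right_of_le_normalizer (h.o2.trans (le_normalizer_Y D))).trans (Y_le_centralizer D)))
  exact h1.trans (le_pCoreOf (isPGroup_of_res_le (isPGroup_pCoreOf p E)
    ((le_inf ((res_le N).trans h2) h4).trans h.c2)) h2 h3)

theorem Y_comm {E' : Subgroup G} (h : PP p D E) (h' : PP p D E') : 𝐘(p, E) ≤ 𝐂(𝐘(p, E')) := by
  obtain ⟨N, h1, h2, h3, h4⟩ := h'.s2 𝐘(p, E') 𝐘(p, E) (Y_isPGroup E') (le_normalizer_Y E')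
    (h.symm.Y_le_O.trans h'.o1) (commutator_eq_bot_of_le_centralizer
      ((commutator_le_right_of_le_normalizer ((h'.symm.Y_le_O.trans h.o1).trans (le_normalizer_Y E))).trans
        (Y_le_centralizer E)))
  exact h1.trans ((pred_Y p E').red N h2 h3 h4)

theorem Y_le_W (h : PP p D E) : 𝐘(p, E) ≤ nbW p D := le_iSup (fun E : {E : Subgroup G // PP p D E} => 𝐘(p, E.1)) ⟨E, h⟩

theorem le_O (h : PP p D E) {X N : Subgroup G} (hX : X ≤ pCoreOf p E) (h1 : X ≤ N) (h2 : N ≤ D) (h3 : D ≤ 𝐍(N))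
    (h4 : 𝐑(p, N) ≤ E) : X ≤ pCoreOf p D := by
  have hR : D ≤ 𝐍(𝐑(p, N)) := le_normalizer_res_of_le h3
  have hRD : 𝐑(p, N) ≤ D := (res_le N).trans h2
  have h5 : ⁅𝐑(p, N), X⁆ ≤ pCoreOf p D := by
    refine le_trans (le_inf ((commutator_mono le_rfl hX).trans (commutator_le_right_of_le_normalizer
      (h4.trans (le_normalizer_pCoreOf p E)))) (commutator_le_left_of_le_normalizer ((h1.trans h2).trans hR))) ?_
    exact (inf_le_pCoreOf (isPGroup_pCoreOf p E) (h4.trans (le_normalizer_pCoreOf p E))).trans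
      (pCoreOf_le_pCoreOf_of_normal hRD hR)
  have hQ := le_normalizer_pCoreOf p D
  have h6 : 𝐑(p, N) ≤ 𝐍(X ⊔ pCoreOf p D) := by
    refine le_normalizer_of_commutator_le_right (le_trans ?_ le_sup_right)
    exact commutator_sup_le_right ((h1.trans h2).trans hQ) le_normalizer h5
      (commutator_le_right_of_le_normalizer (hRD.trans hQ))
  have h7 : SN (X ⊔ pCoreOf p D) D :=
    (sn_of_normal (L := 𝐑(p, N) ⊔ (X ⊔ pCoreOf p D)) le_sup_right (sup_le h6 le_normalizer)).trans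
      ((sn_of_res_le (p := p) (L := N ⊔ pCoreOf p D)
        ((res_sup_eq (isPGroup_pCoreOf p D) ((pCoreOf_le p D).trans h3)).le.trans le_sup_left)
        (sup_le ((res_le N).trans le_sup_left) (sup_le_sup_right h1 _))).trans
      (sn_of_normal (sup_le h2 (pCoreOf_le p D)) (H69.le_normalizer_sup h3 hQ)))
  exact le_sup_left.trans (h7.le_pCoreOf (isPGroup_sup_of_le_normalizer_right ((isPGroup_pCoreOf p E).to_le hX)
    (isPGroup_pCoreOf p D) ((h1.trans h2).trans hQ)))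

end PP

variable [Finite G] [Fact p.Prime]

theorem nbW_le {D N : Subgroup G} (h : ∀ E, PP p D E → 𝐘(p, E) ≤ N) : nbW p D ≤ N := iSup_le fun E => h E.1 E.2

theorem nbW_le_O (D : Subgroup G) : nbW p D ≤ pCoreOf p D := nbW_le fun E h => h.symm.Y_le_O

theorem nbW_comm (D : Subgroup G) : nbW p D ≤ 𝐂(nbW p D) :=
  nbW_le fun E h => le_centralizer_comm.1 (nbW_le fun E' h' => h'.Y_comm h)

theorem le_normalizer_nbW (D : Subgroup G) : D ≤ 𝐍(nbW p D) :=
  le_normalizer_of_cj_le fun g hg => cj_le_iff.2 (nbW_le fun E h => cj_le_iff.1 (by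
    rw [cj_Y]
    have := h.cj g
    rw [cj_eq_of_mem hg] at this
    exact this.Y_le_W))

theorem Y_le_O_of_near (n : ℕ) : ∀ α β : Subgroup G, Near (PP p) (n + 1) α β → 𝐘(p, α) ≤ pCoreOf p β := by
  have hs : ∀ a b : Subgroup G, PP p a b → PP p b a := fun a b h => h.symm
  induction n with
  | zero =>
    intro α β h
    obtain ⟨γ, h1, h2⟩ := h.unsnoc
    rw [h1.eq_of_zero]
    exact h2.Y_le_O
  | succ n ih =>
    intro α β h
    obtain ⟨β₁, h1, hβ⟩ := h.unsnoc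
    obtain ⟨α₁, hα, h2⟩ := h1.uncons hs
    obtain ⟨α₂, hα₁, h3⟩ := (h2.step hβ).uncons hs
    have h4 : nbW p α₁ ≤ pCoreOf p β₁ := nbW_le fun γ hγ => ih _ _ (h2.cons hγ.symm)
    have h5 : nbW p β ≤ α₁ := nbW_le fun δ hδ => (ih _ _ ((h3.step hδ).symm hs)).trans hα₁.o2
    have h6 := hα.symm.Y_le_W
    obtain ⟨N, e1, e2, e3, e4⟩ := hβ.s2 (nbW p β) 𝐘(p, α) ((isPGroup_pCoreOf p β).to_le (nbW_le_O β))
      (le_normalizer_nbW β) ((h6.trans h4).trans hβ.o1) (commutator_eq_bot_of_le_centralizer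
        ((((commutator_mono le_rfl h6).trans (commutator_le_right_of_le_normalizer
          (h5.trans (le_normalizer_nbW α₁)))).trans (nbW_comm α₁)).trans (H69.centralizer_anti h6)))
    refine hβ.symm.le_O (h6.trans h4) e1 e2 e3 (le_trans ?_ (hβ.prim1 𝐘(p, β₁) (Y_ne_bot hβ.c1 hβ.O_ne_bot)
      (le_inf (Y_le β₁) ((Y_le_pCoreOf β₁).trans hβ.o1)) (le_normalizer_Y β₁)))
    exact le_inf ((res_le N).trans e2)
      ((e4.trans (H69.centralizer_anti hβ.symm.Y_le_W)).trans (centralizer_le_normalizer _))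

/-- no primitive pair of characteristic `p` has two `p`-stable members. -/
theorem not_pp {D E : Subgroup G} (h : PP p D E) : False := by
  let A : Subgroup G := ⨆ α : {α : Subgroup G // ∃ n, Near (PP p) n α D}, 𝐘(p, α.1)
  have h1 : ∀ α n, Near (PP p) n α D → 𝐘(p, α) ≤ A := fun α n hα =>
    le_iSup (fun α : {α : Subgroup G // ∃ n, Near (PP p) n α D} => 𝐘(p, α.1)) ⟨α, n, hα⟩
  have h2 : A ≤ pCoreOf p D := iSup_le fun ⟨α, n, hα⟩ => by
    cases n with
    | zero => exact (Y_le_pCoreOf α).trans (congrArg (pCoreOf p) hα.eq_of_zero).le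
    | succ n => exact Y_le_O_of_near n _ _ hα
  have h3 : A ≠ ⊥ := fun e => Y_ne_bot h.c1 h.O_ne_bot (eq_bot_iff.2 (e ▸ h1 D 0 (Near.refl D)))
  have h4 : D ≤ 𝐍(A) := le_normalizer_of_cj_le fun g hg => cj_le_iff.2 (iSup_le fun ⟨α, n, hα⟩ => cj_le_iff.1 (by
    rw [cj_Y]
    have := hα.map (· ^ᶜ g) (fun a b h => h.cj g)
    simp only [cj_eq_of_mem hg] at this
    exact h1 _ _ this))
  have h5 : E ≤ 𝐍(A) := le_normalizer_of_cj_le fun g hg => cj_le_iff.2 (iSup_le fun ⟨α, n, hα⟩ => cj_le_iff.1 (by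
    rw [cj_Y]
    have := (hα.step h).map (· ^ᶜ g) (fun a b h => h.cj g)
    simp only [cj_eq_of_mem hg] at this
    exact h1 _ _ (this.step h.symm)))
  have h6 : A ≤ D ⊓ E := le_inf (h2.trans (pCoreOf_le p D)) (h2.trans h.o1)
  exact h.ne (le_antisymm ((le_inf le_rfl h4).trans (h.prim2 A h3 h6 h5)) ((le_inf le_rfl h5).trans (h.prim1 A h3 h6 h4)))

end H70
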